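import Cfsg.Agent.Lib.BG.Hall
import Cfsg.Agent.Lib.Inv.WreathedSub
import Cfsg.Agent.Lib.Inv.ZStarElt
import Cfsg.Agent.Lib.Transfer.Extremal

/-!
# A normal subgroup of `C(z)` with quaternion Sylow subgroups of order 8 or 16: the action of a Sylow subgroup
-/

set_option autoImplicit false

namespace Cfsg.Lib.QC

open Subgroup Cfsg.Lib.BG Cfsg.Lib.Inv
open scoped Cfsg.Lib.Transfer

variable {G : Type*} [Group G] {A T Q : Subgroup G} {z a b c g q r s t u v w x y : G} {m : ℕ} {e k e' k' i j : ℤ}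

theorem pg_zp {n : ℕ} (h : x ^ 2 ^ n = 1) : IsPGroup 2 (zpowers x) := Inv.isPGroup_zpowers h

theorem pg_inv (h : x * x = 1) : IsPGroup 2 (zpowers x) := pg_zp (n := 1) ((sq x).trans h)

theorem exists_inv_mc [Finite G] (h : MC Q a b (m + 1) 0 1) (hT : IsPGroup 2 T) (le : Q ≤ T) (n : T ≤ 𝐍(Q)) :
    ∃ a b, MC Q a b (m + 1) 0 1 ∧ T ≤ 𝐍(zpowers a) := by
  rcases m with _ | m
  · obtain ⟨K, -, hK, nK, cK⟩ := PGroup.exists_invariant_card_eq_pow hT le (M := ⊥) le_normalizer_of_normal n bot_le (k := 2)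
      (by simp) (by rw [h.card_eq]; decide)
    by_cases e : K ≤ zpowers a
    · exact ⟨a, b, h, eq_of_le_of_card_le e (by rw [cK, Nat.card_zpowers, h.ord]) ▸ nK⟩
    obtain ⟨x, m, n⟩ := SetLike.not_le_iff_exists.1 e
    obtain ⟨i, rfl⟩ := h.exists_refl (hK m) n
    have s : a ^ i * b * (a ^ i * b) = a ^ (2 : ℤ) := by rw [h.refl_sq]; simp
    have o : orderOf (a ^ i * b) = 2 ^ (1 + 1) := orderOf_eq_prime_pow (by
      rw [pow_one, sq, s, h.zpow_eq_one_iff]; decide) (h.refl_pow_four i)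
    have z : zpowers (a ^ i * b) = K := eq_of_le_of_card_le (zpowers_le.2 m) (by rw [cK, Nat.card_zpowers, o])
    have c : a * (a ^ i * b) * a⁻¹ = (a ^ i * b)⁻¹ := by
      have := h.zpow_conj_refl 1 i
      rw [zpow_one] at this
      rw [this, eq_inv_iff_mul_eq_one, h.refl_mul_refl, h.zpow_eq_one_iff]
      exact ⟨1, by ring⟩
    refine ⟨_, a, ⟨o, fun ⟨l, f⟩ => ?_, le_antisymm (sup_le (z ▸ hK) h.zpowers_le) (h.le_of_mem (mem_sup_right (mem_zpowers a)) ?_),
      by simpa using c, ?_, by simp⟩, z ▸ nK⟩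
    · have : a * (a ^ i * b) * a⁻¹ = a ^ i * b := by
        generalize a ^ i * b = x at f
        subst f; group
      rw [c, inv_eq_iff_mul_eq_one, s, h.zpow_eq_one_iff] at this
      exact absurd this (by decide)
    · simpa using mul_mem (inv_mem (zpow_mem (mem_sup_right (mem_zpowers a)) i))
        (mem_sup_left (T := zpowers a) (mem_zpowers (a ^ i * b)))
    · rw [one_mul, show ((2 : ℤ) ^ 1) = 2 from rfl, zpow_two, s, zpow_two]
  refine ⟨a, b, h, fun t ht => ?_⟩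
  obtain ⟨i, e | e⟩ := h.mem_iff.1 (conj_mem_of_norm (n ht) h.a_mem)
  · exact PGroup.mem_normalizer_zpowers e
  have := h.refl_pow_four i
  rw [← e, conj_pow, conj_eq_one_iff] at this
  have := Nat.le_of_dvd (by decide) (h.ord ▸ orderOf_dvd_of_pow_eq_one this)
  have := Nat.pow_le_pow_right (n := 2) (by decide) (show 3 ≤ m + 1 + 1 + 1 by omega)
  omega

/-- `t` acts as `a ↦ a ^ e`, `b ↦ a ^ k b`. -/
structure Act (a b t : G) (e k : ℤ) : Prop where
  ha : t * a * t⁻¹ = a ^ e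
  hb : t * b * t⁻¹ = a ^ k * b

theorem Act.zp (h : Act a b t e k) (i : ℤ) : t * a ^ i * t⁻¹ = a ^ (e * i) := by rw [← conj_zpow, h.ha, ← zpow_mul]

theorem Act.rf (h : Act a b t e k) (i : ℤ) : t * (a ^ i * b) * t⁻¹ = a ^ (e * i + k) * b := by
  rw [← conj_mul, h.zp, h.hb, zpow_add, mul_assoc]

theorem Act.mul (h : Act a b t e k) (h' : Act a b s e' k') : Act a b (t * s) (e * e') (e * k' + k) :=
  ⟨by rw [← h.zp, ← h'.ha]; group, by rw [← h.rf, ← h'.hb]; group⟩

theorem Act.one (h : Act a b 1 e k) : a ^ e = a ^ (1 : ℤ) ∧ a ^ k = a ^ (0 : ℤ) :=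
  ⟨by simpa using h.ha.symm, by simpa using h.hb.symm⟩

theorem Act.of_cent (h : Act a b (t * c) e k) (ha : a * c = c * a) (hb : b * c = c * b) : Act a b t e k :=
  ⟨by rw [← h.ha, mul_assoc t c, ← ha]; group, by rw [← h.hb, mul_assoc t c, ← hb]; group⟩

theorem Act.cent (h : Act a b t e k) (ha : a * c = c * a) (hb : b * c = c * b) : Act a b (t * c) e k :=
  ⟨by rw [← h.ha, mul_assoc t, ← ha]; group, by rw [← h.hb, mul_assoc t, ← hb]; group⟩

theorem Act.eq (h : Act a b t e k) (h' : Act a b t e' k') : a ^ e = a ^ e' ∧ a ^ k = a ^ k' :=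
  ⟨h.ha.symm.trans h'.ha, mul_right_cancel (h.hb.symm.trans h'.hb)⟩

theorem act_a (h : MC Q a b m 0 1) (j : ℤ) : Act a b (a ^ j) 1 (2 * j) :=
  ⟨by group, by simpa using h.zpow_conj_refl j 0⟩

theorem act_b (h : MC Q a b m 0 1) (j : ℤ) : Act a b (a ^ j * b) (-1) (2 * j) :=
  ⟨by simpa using h.refl_conj j 1, by simpa using h.refl_conj_refl j 0⟩

/-- all involutions of the coset `w Q` are conjugate -/
theorem Act.cj [Finite G] (h : MC Q a b (m + 1) 0 1) (H : Act a b w (-1) k) (hk : ¬ 2 ∣ k) (w2 : w * w = 1) (hq : q ∈ Q)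
    (e : w * q * (w * q) = 1) : ∃ y ∈ Q, y * w * y⁻¹ = w * q := by
  have iw : w⁻¹ = w := inv_eq_of_mul_eq_one_right w2
  have c : ∀ i : ℤ, a ^ i * w = w * a ^ (-i) := fun i => by
    have := H.zp (-i)
    rw [neg_mul_neg, one_mul] at this
    rw [← this, inv_mul_cancel_right]
  obtain ⟨i, rfl | rfl⟩ := h.mem_iff.1 hq
  · have d : b⁻¹ * w * b = w * a ^ k := by
      have := h.conj_zpow k
      calc _ = w * (w * b * w⁻¹)⁻¹ * b := by rw [iw]; simp [mul_assoc, ← mul_assoc w w, w2, iw]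
        _ = w * (b⁻¹ * (b * a ^ k * b⁻¹) * b) := by rw [H.hb, this]; group
        _ = _ := by group
    rcases Int.emod_two_eq_zero_or_one i with f | f
    · exact ⟨a ^ (-(i / 2)), h.zpow_mem _, by
        rw [c, mul_assoc, ← zpow_neg, ← zpow_add]; congr 2; omega⟩
    · refine ⟨a ^ ((k - i) / 2) * b⁻¹, mul_mem (h.zpow_mem _) (inv_mem h.b_mem), ?_⟩
      calc _ = a ^ ((k - i) / 2) * (b⁻¹ * w * b) * (a ^ ((k - i) / 2))⁻¹ := by group
        _ = _ := by
          rw [d, ← mul_assoc, c, mul_assoc, mul_assoc, ← zpow_neg, ← zpow_add, ← zpow_add]; congr 2; omega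
  · have : w * (a ^ i * b) * w⁻¹ * (a ^ i * b) = 1 := by rw [iw, ← e]; group
    rw [H.rf, h.refl_mul_refl, h.zpow_eq_one_iff] at this
    have := (dvd_pow_self (2 : ℤ) (Nat.succ_ne_zero _)).trans this
    rw [pow_succ] at this
    omega

end Cfsg.Lib.QC
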