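import Cfsg.Agent.Lib.QC.Loc
import Cfsg.Agent.Lib.Alt.Mult
import Cfsg.Agent.Lib.McR.E
import Cfsg.Agent.Lib.Comp.Layer
import Cfsg.Agent.Lib.PGroup.RankOne

/-!
# Covers of `A_5`, `A_6`, `A_7` with centre of even order
-/

set_option autoImplicit false

namespace Cfsg.Lib.QC

open Subgroup Cfsg.Lib.BG Cfsg.Lib.Inv Cfsg.Lib.Comp Equiv Equiv.Perm Cfsg.Lib.Alt

section

variable {G : Type*} [Group G] [Finite G] {A Q : Subgroup G} {z y : G}

theorem cq_step (hA : IsQuasisimple A) (z1 : z ≠ 1) (z2 : z * z = 1) (mz : z ∈ A) (zc : z ∈ 𝐂(A))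
    (uq : ∀ x ∈ A, x * x = 1 → x = 1 ∨ x = z) (hQ : Syl 2 Q A) (hy : y ∈ 𝐍(A)) (p : IsPGroup 2 (zpowers y))
    (c : y ∈ 𝐂(Q)) (h : y * y ∈ 𝐂(A)) : y ∈ 𝐂(A) := by
  have n := zpowers_le.2 hy
  obtain ⟨S, hS, le⟩ := Syl.exists_ge (pgroup_sup hQ.pgroup p (zpowers_le.2 (cent_le_norm _ c)))
    (sup_le_sup_right hQ.le (zpowers y))
  have e : Q = S ⊓ A := hQ.eq_of_le_pgroup (le_inf (le_sup_left.trans le) hQ.le) inf_le_right (hS.pgroup.to_le inf_le_left)
  have my := le (mem_sup_right (mem_zpowers y))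
  have key : ∀ g ∈ A, g * y * g⁻¹ ∈ S → g * y * g⁻¹ = y := fun g hg m => by
    have q : g * y * g⁻¹ * y⁻¹ ∈ Q := e ▸ ⟨mul_mem m (S.inv_mem my), by
      have := A.mul_mem hg (conj_mem_of_norm hy (A.inv_mem hg))
      rwa [← mul_assoc, ← mul_assoc] at this⟩
    rcases uq _ (hQ.le q) (by
      have f : g * y * g⁻¹ * (g * y * g⁻¹) = y * y := by rw [conj_mul, mem_cent.1 h g hg, mul_inv_cancel_right]
      calc _ = g * y * g⁻¹ * y⁻¹ * (g * y * g⁻¹ * y⁻¹ * y) * y⁻¹ := by group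
        _ = g * y * g⁻¹ * (g * y * g⁻¹) * (y * y)⁻¹ := by
          rw [mem_cent.1 c _ q, ← mul_assoc _ y, inv_mul_cancel_right]; group
        _ = 1 := by rw [f, mul_inv_cancel]) with f | f
    · exact mul_inv_eq_one.1 f
    replace f := mul_inv_eq_iff_eq_mul.1 f
    have cz := mem_cent.1 zc
    refine (hQ.not_dvd' ?_).elim
    refine ((PGroup.relIndex_sup_zpowers (p := 2) (M := A ⊓ 𝐂[y]) (x := g) (norm_of_conj_eq ?_) (fun l => z1 ?_)
      ⟨pow_mem hg _, mem_cent1.2 (mul_inv_eq_iff_eq_mul.1 ?_)⟩).symm.dvd.trans (relIndex_dvd_right le_sup_left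
        (sup_le inf_le_left (zpowers_le.2 hg)))).trans (relIndex_dvd_left (le_inf hQ.le (le_cent1_iff.2 c)) A)
    · rw [Transfer.conj_inf, conj_eq_of_mem hg, conj_cent1, f]
      ext x
      refine mem_inf.trans ((and_congr_right fun hx => ?_).trans mem_inf.symm)
      rw [mem_cent1, mem_cent1, ← mul_assoc, cz x hx, mul_assoc, mul_assoc, mul_right_inj]
    · rwa [mem_cent1.1 l.2, mul_inv_cancel_right, right_eq_mul] at f
    · calc _ = g * (g * y * g⁻¹) * g⁻¹ := by rw [sq]; group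
        _ = _ := by rw [f, ← conj_mul, f, cz g hg, mul_inv_cancel_right, ← mul_assoc, z2, one_mul]
  obtain ⟨P, rfl⟩ := Syl.iff_sylow.1 hS
  have mh := mem_sup_right (S := A) (mem_zpowers y)
  have iso := isoElt_of_sylow P (w := ⟨y, mh⟩) (let ⟨w, h, e⟩ := my; (Subtype.ext e : w = ⟨y, mh⟩) ▸ h) fun g m => Subtype.ext (by
    obtain ⟨a, ha, _, ⟨i, rfl⟩, l⟩ := (mem_sup_left_norm n).1 g.2
    have := key a ha
    change (g : G) * y * g.1⁻¹ = y
    have f : (g : G) * y * g.1⁻¹ = a * y * a⁻¹ := by rw [← l]; group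
    exact f ▸ this (f ▸ mem_map_of_mem _ m))
  refine zpowers_le.1 (comm_eq_bot_iff'.1 ((qs_commutator_eq_self_or hA n).resolve_left fun l => ?_))
  obtain ⟨w, hw, rfl⟩ : z ∈ (oddCore (A ⊔ zpowers y : Subgroup G)).map (Subgroup.subtype _) := by
    refine (comm_le_iff.2 ?_) (l.ge mz)
    rintro a ha _ ⟨i, rfl⟩
    exact ⟨_, inv_mem ((iso.of_mem_zpowers ⟨i, rfl⟩).zstar ⟨a, mem_sup_left ha⟩), by simp [mul_assoc]⟩
  exact (Core.odd_card_oddCore _).not_two_dvd_nat ((ord_two_iff.2 ⟨z1, z2⟩).symm.dvd.trans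
    (orderOf_coe w ▸ orderOf_dvd_natCard _ hw))

theorem cq_of (hA : IsQuasisimple A) (z1 : z ≠ 1) (z2 : z * z = 1) (mz : z ∈ A) (zc : z ∈ 𝐂(A))
    (uq : ∀ x ∈ A, x * x = 1 → x = 1 ∨ x = z) (hQ : Syl 2 Q A) (hy : y ∈ 𝐍(A)) (p : IsPGroup 2 (zpowers y))
    (c : y ∈ 𝐂(Q)) : y ∈ 𝐂(A) := by
  obtain ⟨n, e⟩ := p ⟨y, mem_zpowers y⟩
  have h : y ^ 2 ^ n ∈ 𝐂(A) := by rw [show y ^ 2 ^ n = 1 from congrArg Subtype.val e]; exact one_mem _
  clear e
  induction n generalizing y with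
  | zero => simpa using h
  | succ n ih => exact cq_step hA z1 z2 mz zc uq hQ hy p c (ih (mul_mem hy hy)
      (p.to_le (zpowers_le.2 (mul_mem (mem_zpowers y) (mem_zpowers y)))) (mul_mem c c) (by rwa [← sq, ← pow_mul, ← pow_succ']))

end

variable {Γ : Type*} [Group Γ] [Finite Γ] {n : ℕ} {σ : Γ →* alternatingGroup (Fin n)} {z x y : Γ}

omit [Finite Γ] in
theorem supp4 (hn : n ≤ 7) (h : σ x * σ x = 1) (h1 : σ x ≠ 1) : (tau σ x).support.card = 4 := by
  have e := McR.cycleType_inv (σ := tau σ x) (congrArg Subtype.val h)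
  have s : sign (tau σ x) = 1 := (σ x).2
  have c := Finset.card_le_univ (tau σ x).support
  have d := sum_cycleType (tau σ x)
  have f : (tau σ x).support.card ≠ 0 := fun f => h1 (Subtype.ext (card_support_eq_zero.1 f))
  rw [sign_of_cycleType, e] at s
  rw [e, Multiset.sum_replicate, smul_eq_mul] at d
  rw [Fintype.card_fin] at c
  generalize (tau σ x).support.card = k at *
  rcases (by omega : k = 2 ∨ k = 4 ∨ k = 6) with rfl | rfl | rfl
  exacts [absurd s (by decide), rfl, absurd s (by decide)]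

theorem ker_two (hp : commutator Γ = ⊤) (hs : Function.Surjective σ) (hc : σ.ker ≤ center Γ) (h5 : 5 ≤ n) (hn : n ≤ 7)
    (z2 : z * z = 1) (z1 : z ≠ 1) (mz : z ∈ σ.ker) :
    (∀ x, x * x = 1 → x = 1 ∨ x = z) ∧ ∀ x ∈ σ.ker, ∀ k, x ^ 2 ^ k = 1 → x * x = 1 := by
  let N := oddCore Γ ⊓ σ.ker
  let π := QuotientGroup.mk' N
  let τ := QuotientGroup.lift N σ inf_le_right
  have od : ∀ x k, x ^ 2 ^ k = 1 → π x = 1 → x = 1 := fun x k e f => orderOf_eq_one_iff.1 (Nat.eq_one_of_dvd_coprimes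
    (((Core.odd_card_oddCore Γ).coprime_two_right).pow_right k)
    (orderOf_dvd_natCard _ ((QuotientGroup.eq_one_iff _).1 f).1) (orderOf_dvd_of_pow_eq_one e))
  have ts : Function.Surjective τ := fun g => let ⟨x, e⟩ := hs g; ⟨π x, e⟩
  have tc : τ.ker ≤ center _ := fun x hx => by
    obtain ⟨x, rfl⟩ := QuotientGroup.mk'_surjective N x
    exact map_center_le_center_of_surjective (QuotientGroup.mk'_surjective N) (mem_map_of_mem _ (hc hx))
  have tp : commutator (Γ ⧸ N) = ⊤ := by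
    have : Group.IsPerfect Γ := ⟨hp⟩
    exact (Group.IsPerfect.ofSurjective (QuotientGroup.mk'_surjective N)).commutator_eq_top
  have c2 := card_ker_le_of_coprime ⟨ts, tc, tp.ge.trans' le_top⟩ (α := ⟨0, by omega⟩) (β := ⟨1, by omega⟩) (by simp [Fin.ext_iff]) fun d => by
    obtain ⟨⟨y, hy⟩, o⟩ := exists_prime_orderOf_dvd_card' 3 d
    obtain ⟨x, rfl⟩ := QuotientGroup.mk'_surjective N y
    obtain ⟨k, m, hm, e⟩ := Nat.exists_eq_two_pow_mul_odd (orderOf_pos x).ne'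
    have : x ^ 2 ^ k ∈ N := ⟨Core.le_oddCore ⟨fun a ha g => by
      rwa [mem_center_iff.1 (zpowers_le.2 (hc (pow_mem hy _)) ha) g, mul_inv_cancel_right]⟩ (hm.of_dvd_nat (by
        rw [Nat.card_zpowers, orderOf_dvd_iff_pow_eq_one, ← pow_mul, ← e, pow_orderOf_eq_one])) (mem_zpowers _), pow_mem hy _⟩
    rw [← orderOf_coe] at o
    have f : orderOf (π x) ∣ 2 ^ k := orderOf_dvd_of_pow_eq_one (by rw [← map_pow]; exact (QuotientGroup.eq_one_iff _).2 this)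
    exact absurd (Nat.prime_three.dvd_of_dvd_pow (o ▸ f)) (by decide)
  have pz : π z ≠ 1 := fun e => z1 (od z 1 ((sq z).trans z2) e)
  have k2 : ∀ w ∈ τ.ker, w = 1 ∨ w = π z := fun w hw => by
    by_contra! f
    have := Nat.card_le_card_of_injective (fun i : Fin 3 => (![1, ⟨w, hw⟩, ⟨π z, mz⟩] i : τ.ker)) (by
      intro i j; fin_cases i <;> fin_cases j <;> simp [Subtype.ext_iff, f.1, f.2, pz, f.1.symm, f.2.symm, pz.symm])
    rw [Nat.card_fin] at this; omega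
  have k3 : ∀ x ∈ σ.ker, ∀ k, x ^ 2 ^ k = 1 → x = 1 ∨ x = z := fun x hx k e => (k2 (π x) hx).imp (od x k e) fun f => by
    rw [← mul_inv_eq_one, inv_eq_of_mul_eq_one_right z2]
    refine od _ (k + 1) ?_ (by rw [map_mul, f, ← map_mul, z2, map_one])
    rw [Commute.mul_pow (mem_center_iff.1 (hc mz) x), pow_succ' 2, pow_mul z, sq, z2, mul_comm 2, pow_mul, e]; simp
  refine ⟨fun x e => ?_, fun x hx k e => (k3 x hx k e).elim (fun f => by simp [f]) (· ▸ z2)⟩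
  by_cases hx : σ x = 1
  · exact k3 x hx 1 ((sq x).trans e)
  have e' : σ x * σ x = 1 := by rw [← map_mul, e, map_one]
  obtain ⟨φ, hφ⟩ := exists_section ts tc (fun w hw => by
    rcases k2 w hw with rfl | rfl
    exacts [one_pow _, by rw [sq, ← map_mul, z2, map_one]]) (x := π x) (by rw [sq, ← map_mul, e, map_one]) (by
      change (tau σ x).cycleType = _
      rw [McR.cycleType_inv (σ := tau σ x) (congrArg Subtype.val e'), supp4 hn e' hx]; rfl)
  obtain ⟨g, hg⟩ : π z ∈ φ.range := (eq_top_of_sup_center_of_perfect tp (N := φ.range) (top_unique fun w _ => by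
    rw [← mul_inv_cancel_left (φ (τ w)) w]
    exact mul_mem (mem_sup_left ⟨_, rfl⟩) (mem_sup_right (tc (by
      rw [MonoidHom.mem_ker, map_mul, map_inv, hφ, inv_mul_cancel]))))).ge (mem_top _)
  exact (pz (by rw [← hg, ← hφ g, hg, show τ (π z) = 1 from mz, map_one])).elim

omit [Finite Γ] in
theorem pow_four (hn : n ≤ 7) {k : ℕ} (h : x ^ 2 ^ k = 1) : x ^ 4 ∈ σ.ker := by
  refine Subtype.ext (show tau σ _ = 1 from ?_)
  rw [map_pow, ← orderOf_dvd_iff_pow_eq_one, ← lcm_cycleType, Multiset.lcm_dvd]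
  intro c hc
  obtain ⟨j, -, rfl⟩ := (Nat.dvd_prime_pow Nat.prime_two).1 ((dvd_of_mem_cycleType hc).trans
    (orderOf_dvd_of_pow_eq_one (by rw [← map_pow, h, map_one] : tau σ x ^ 2 ^ k = 1)))
  have := (le_card_support_of_mem_cycleType hc).trans (Finset.card_le_univ _)
  rw [Fintype.card_fin] at this
  exact pow_dvd_pow 2 (Nat.le_of_lt_succ ((Nat.pow_lt_pow_iff_right one_lt_two).1 (by omega : 2 ^ j < 2 ^ 3)))

theorem hy_of {G : Type*} [Group G] [Finite G] {A : Subgroup G} (hA : IsQuasisimple A)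
    (tight : ∀ x ∈ 𝐂(A), ∀ g, x * x = 1 → x ≠ 1 → g * x * g⁻¹ ∈ 𝐂(A) → g ∈ 𝐍(A))
    (cyc : ∀ R ≤ 𝐂(A), IsPGroup 2 R → IsCyclic R) (h5 : 5 ≤ n) (hn : n ≤ 7) (e : A ⧸ center A ≃* alternatingGroup (Fin n))
    {z : A} (hz : z ∈ center A) (z2 : z * z = 1) (z1 : z ≠ 1) : Hy A z.1 := by
  let σ := e.toMonoidHom.comp (QuotientGroup.mk' _)
  have k : σ.ker = center A := by rw [MonoidHom.ker_comp_of_injective _ _ e.injective, QuotientGroup.ker_mk']
  have hs : Function.Surjective σ := e.surjective.comp (QuotientGroup.mk'_surjective _)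
  have hp := isQuasisimple_commutator_eq_top hA
  obtain ⟨k1, k2⟩ := ker_two hp hs k.le h5 hn z2 z1 (k.ge hz)
  have zc : z.1 ∈ 𝐂(A) := mem_cent.2 fun x hx => congrArg Subtype.val (mem_center_iff.1 hz ⟨x, hx⟩)
  have w2 : z.1 * z = 1 := congrArg Subtype.val z2
  have w1 : z.1 ≠ 1 := fun e => z1 (Subtype.ext e)
  have nm : 𝐂[z.1] ≤ 𝐍(A) := fun g hg => tight z zc g w2 w1 (by rwa [mem_cent1.1 hg, mul_inv_cancel_right])
  have uq : ∀ x ∈ A, x * x = 1 → x = 1 ∨ x = z := fun x hx f =>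
    (k1 ⟨x, hx⟩ (Subtype.ext f)).imp (congrArg Subtype.val) (congrArg Subtype.val)
  refine ⟨w2, w1, z.2, zc, nm, uq, cyc, fun Q hQ => ?_, fun x hx y hy x2 y2 => ?_,
    fun Q hQ y hy p c => cq_of hA w1 w2 z.2 zc uq hQ (nm hy) p c⟩
  · have rk : PRankLE 2 1 Q := fun E _ e2 => by
      rw [← card_subtype, pow_one, ← ord_two_iff.2 ⟨w1, w2⟩, ← Nat.card_zpowers]
      refine card_le_of_le ?_
      rintro _ ⟨x, hx, rfl⟩
      rcases uq x (hQ.le x.2) (congrArg Subtype.val ((sq x).symm.trans (e2 x hx))) with f | f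
      exacts [⟨0, (zpow_zero _).trans f.symm⟩, ⟨1, (zpow_one _).trans f.symm⟩]
    rcases PGroup.isCyclic_or_quaternion_of_pRankLE_one hQ.pgroup rk with c | ⟨-, m, ⟨f⟩⟩
    · obtain ⟨S, rfl⟩ := Syl.iff_sylow.1 hQ
      have := (S.1.equivMapOfInjective _ A.subtype_injective).isCyclic.2 c
      have : ((⊥ : Subgroup A).subgroupOf S.1).Normal := by rw [bot_subgroupOf]; infer_instance
      obtain ⟨g, f, -⟩ := Transfer.exists_conj_mem_and_conj_le S (T := ⊥)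
        (isCyclic_of_surjective _ (QuotientGroup.mk'_surjective _)) z2 (mem_sup_right (hp.ge (mem_top z))) IsPGroup.of_bot bot_le
      exact (z1 (conj_eq_one_iff.1 f)).elim
    · obtain ⟨a, b, M⟩ := exists_mc_of_quaternion f
      have l : (⟨a, hQ.le M.a_mem⟩ : A) ^ 2 ^ (m + 1 + 1) = 1 := Subtype.ext (M.ord ▸ pow_orderOf_eq_one a)
      have := congrArg Subtype.val (k2 _ (pow_four hn l) (m + 1 + 1) (by rw [← pow_mul, mul_comm, pow_mul, l, one_pow]))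
      have := M.ord ▸ orderOf_dvd_of_pow_eq_one ((pow_add a 4 4).trans this)
      exact ⟨a, b, m, by have := (Nat.pow_dvd_pow_iff_le_right one_lt_two (l := 3)).1 this; omega, M⟩
  have key : ∀ x : A, x * x = z → σ x * σ x = 1 ∧ σ x ≠ 1 := fun x f => ⟨by rw [← map_mul, f]; exact k.ge hz, fun l =>
    z1 (f ▸ k2 x l 2 (by rw [← z2, ← f]; simp [pow_succ, mul_assoc]))⟩
  obtain ⟨a1, a2⟩ := key ⟨x, hx⟩ (Subtype.ext x2)
  obtain ⟨b1, b2⟩ := key ⟨y, hy⟩ (Subtype.ext y2)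
  obtain ⟨g, hg, f⟩ := McR.exists_conj_even (congrArg Subtype.val a1) (congrArg Subtype.val b1) (fun l => a2 (Subtype.ext l))
    ((supp4 hn a1 a2).trans (supp4 hn b1 b2).symm)
  obtain ⟨g, rfl⟩ := lift_of_sign hs hg
  have m := mem_ker_of_eq (σ := σ) (x := ⟨y, hy⟩) (y := g * ⟨x, hx⟩ * g⁻¹) (by rw [map_mul, map_mul, map_inv]; exact f.symm)
  have c := fun w => congrArg Subtype.val (mem_center_iff.1 (k.le m) w)
  refine ⟨g, g.2, (uq (y⁻¹ * (g * x * g.1⁻¹)) (mul_mem (inv_mem hy) (mul_mem (mul_mem g.2 hx) (inv_mem g.2))) ?_).imp (fun l => (inv_mul_eq_one.1 l).symm)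
    eq_mul_of_inv_mul_eq⟩
  calc _ = y⁻¹ * (y⁻¹ * (g * x * g.1⁻¹)) * (g * x * g.1⁻¹) := by
        rw [show y⁻¹ * (y⁻¹ * (g * x * g.1⁻¹)) = y⁻¹ * (g * x * g.1⁻¹) * y⁻¹ from c ⟨y, hy⟩⁻¹]; group
    _ = (y * y)⁻¹ * (g * (x * x) * g.1⁻¹) := by group
    _ = 1 := by rw [x2, y2, mem_cent.1 zc g g.2, mul_inv_cancel_right, inv_mul_cancel]

end Cfsg.Lib.QC
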