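import Cfsg.Agent.Lib.QC.Act

/-!
# A normal subgroup of `C(z)` with quaternion Sylow subgroups of order 8 or 16: inner involutions
-/

set_option autoImplicit false

namespace Cfsg.Lib.QC

open Subgroup Cfsg.Lib.BG Cfsg.Lib.Inv
open scoped Cfsg.Lib.Transfer

variable {G : Type*} [Group G] [Finite G] {A T Q C N : Subgroup G} {z a b c d g q r s t u v w x y : G} {m : ℕ}
  {e k e' k' i j : ℤ}

theorem transfer_hom (hG : pResidual 2 G = ⊤) (hT : Syl 2 T ⊤) {R : Type*} [CommRing R] [IsDomain R] (φ : T →* Rˣ)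
    (hy : y * y = 1) (hC : IsPGroup 2 C) (hCy : C ≤ 𝐂[y]) : ∃ g, ∃ h : g * y * g⁻¹ ∈ T, φ ⟨_, h⟩ = 1 ∧ g ⋆ C ≤ T := by
  obtain ⟨S, rfl⟩ := Syl.top_iff_sylow.1 hT
  have e : (φ.ker.map S.1.subtype).subgroupOf S.1 = φ.ker := comap_map_eq_self_of_injective (subtype_injective _) _
  have : ((φ.ker.map S.1.subtype).subgroupOf S.1).Normal := e.symm ▸ inferInstance
  obtain ⟨g, ⟨x, h1, h⟩, h2, h3⟩ := Transfer.exists_conj_mem_and_conj_le S (T := φ.ker.map S.1.subtype)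
    (isCyclic_of_injective_ringHom ((Units.coeHom R).comp ((QuotientGroup.kerLift φ).comp
      (QuotientGroup.quotientMulEquivOfEq e).toMonoidHom))
        (Units.val_injective.comp ((QuotientGroup.kerLift_injective φ).comp (MulEquiv.injective _)))) hy (by rw [hG]; simp) hC hCy
  exact ⟨g, h2, by rwa [show (⟨_, h2⟩ : S.1) = x from Subtype.ext h.symm], h3⟩

theorem transfer_pred (hG : pResidual 2 G = ⊤) (hT : Syl 2 T ⊤) (P : G → Prop)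
    (hP : ∀ s ∈ T, ∀ t ∈ T, P (s * t) ↔ (P s ↔ P t)) (hy : y * y = 1) : ∃ g, g * y * g⁻¹ ∈ T ∧ P (g * y * g⁻¹) := by
  classical
  obtain ⟨g, h, e, -⟩ := transfer_hom hG hT (MonoidHom.mk' (fun t : T => if P t then (1 : ℤˣ) else -1) fun s t => by
    simp only [coe_mul, hP _ s.2 _ t.2]
    by_cases P s <;> by_cases P t <;> simp [*]) hy IsPGroup.of_bot bot_le
  refine ⟨g, h, by_contra fun n => ?_⟩
  simp [n] at e

theorem transfer_ab (hG : pResidual 2 G = ⊤) (hT : Syl 2 T ⊤) (hN : ∀ s ∈ T, ∀ t ∈ T, s * t * s⁻¹ * t⁻¹ ∈ N) (hr : r ∈ T)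
    (h : r ∉ N) (hy : y * y = 1) (hC : IsPGroup 2 C) (hCy : C ≤ 𝐂[y]) :
    ∃ (g : G) (K : Subgroup G), T ⊓ N ≤ K ∧ r ∉ K ∧ g * y * g⁻¹ ∈ T ⊓ K ∧ g ⋆ C ≤ T := by
  have c : _root_.commutator T ≤ N.subgroupOf T := commutator_le.2 fun s _ t _ => hN _ s.2 _ t.2
  let M := (N.subgroupOf T).map Abelianization.of
  obtain ⟨φ, e⟩ := CommGroup.exists_apply_ne_one_of_hasEnoughRootsOfUnity (Abelianization T ⧸ M) ℂ
    (a := QuotientGroup.mk' M (Abelianization.of ⟨r, hr⟩)) fun e => by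
      have := (QuotientGroup.eq_one_iff _).1 e
      rw [← mem_comap, comap_map_eq, Abelianization.ker_of, sup_eq_left.2 c] at this
      exact h this
  let ψ := φ.comp ((QuotientGroup.mk' M).comp Abelianization.of)
  obtain ⟨g, h1, h2, h3⟩ := transfer_hom hG hT ψ hy hC hCy
  refine ⟨g, ψ.ker.map T.subtype, fun x hx => ⟨⟨x, hx.1⟩, ?_, rfl⟩, ?_, ⟨h1, _, h2, rfl⟩, h3⟩
  · exact (congrArg φ ((QuotientGroup.eq_one_iff _).2 (mem_map_of_mem _ (show ⟨x, hx.1⟩ ∈ N.subgroupOf T from hx.2)))).trans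
      (map_one φ)
  · rintro ⟨x, hx, rfl⟩
    exact e hx

/-- The hypotheses on `A ⊴ C(z)`. -/
structure Hy (A : Subgroup G) (z : G) : Prop where
  z2 : z * z = 1
  z1 : z ≠ 1
  mz : z ∈ A
  zc : z ∈ 𝐂(A)
  nm : 𝐂[z] ≤ 𝐍(A)
  uq : ∀ x ∈ A, x * x = 1 → x = 1 ∨ x = z
  cyc : ∀ R ≤ 𝐂(A), IsPGroup 2 R → IsCyclic R
  mc : ∀ Q, Syl 2 Q A → ∃ a b m, m ≤ 1 ∧ MC Q a b (m + 1) 0 1
  fa : ∀ x ∈ A, ∀ y ∈ A, x * x = z → y * y = z → ∃ g ∈ A, g * x * g⁻¹ = y ∨ g * x * g⁻¹ = y * z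
  cq : ∀ Q, Syl 2 Q A → ∀ y ∈ 𝐂[z], IsPGroup 2 (zpowers y) → y ∈ 𝐂(Q) → y ∈ 𝐂(A)

/-- with coordinates in a Sylow subgroup `T` of `C(z)` -/
structure Lc (A T : Subgroup G) (z a b : G) (m : ℕ) : Prop extends Hy A z where
  syl : Syl 2 T 𝐂[z]
  m1 : m ≤ 1
  M : MC (T ⊓ A) a b (m + 1) 0 1
  na : T ≤ 𝐍(zpowers a)

namespace Hy

variable (h : Hy A z)
include h

omit [Finite G] in
theorem AC : A ≤ 𝐂[z] := le_cent1_iff.2 h.zc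
omit [Finite G] in
theorem CC : 𝐂(A) ≤ 𝐂[z] := cent_le_cent1 h.mz
omit [Finite G] in
theorem DC : A ⊔ 𝐂(A) ≤ 𝐂[z] := sup_le h.AC h.CC
omit [Finite G] in
theorem nD : 𝐂[z] ≤ 𝐍(A ⊔ 𝐂(A)) := norm_sup h.nm (norm_cent h.nm)

theorem mT (hT : Syl 2 T 𝐂[z]) : z ∈ T := zpowers_le.1 (hT.ge_of_norm_p (zpowers_le.2 (self_mem_cent1 z)) (pg_inv h.z2)
  (norm_of_cent (hT.le.trans (cent_zpowers z).ge)))

theorem lc (hT : Syl 2 T 𝐂[z]) : ∃ a b m, Lc A T z a b m := by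
  obtain ⟨a, b, m, h1, h2⟩ := h.mc _ (hT.inf h.AC (hT.le.trans h.nm))
  obtain ⟨a, b, h3, h4⟩ := exists_inv_mc h2 hT.pgroup inf_le_left (norm_inf (le_norm T) (hT.le.trans h.nm))
  exact ⟨a, b, m, h, hT, h1, h3, h4⟩

theorem lc' (hC : IsPGroup 2 C) (le : C ≤ 𝐂[z]) : ∃ T a b m, Lc A T z a b m ∧ C ≤ T :=
  let ⟨T, hT, l⟩ := Syl.exists_ge hC le
  let ⟨a, b, m, L⟩ := h.lc hT
  ⟨T, a, b, m, L, l⟩

omit [Finite G] in
theorem uqC (hc : c ∈ 𝐂(A)) (e : c * c = 1) : c = 1 ∨ c = z := or_iff_not_imp_left.2 fun n =>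
  eq_of_isCyclic_of_orderOf_two (h.cyc (zpowers c ⊔ zpowers z) (sup_le (zpowers_le.2 hc) (zpowers_le.2 h.zc))
    (isPGroup_sup_of_commute (pg_inv e) (pg_inv h.z2) (le_cent_iff.1 (zpowers_le.2 ((cent_zpowers z).ge (h.CC hc))))))
    (mem_sup_left (mem_zpowers c)) (mem_sup_right (mem_zpowers z)) (ord_two_iff.2 ⟨n, e⟩) (ord_two_iff.2 ⟨h.z1, h.z2⟩)

end Hy

namespace Lc

variable (h : Lc A T z a b m)
include h

theorem zeq : a ^ i = a ^ j ↔ m = 0 ∧ 4 ∣ i - j ∨ m = 1 ∧ 8 ∣ i - j := by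
  rw [h.M.zpow_eq_iff]
  obtain rfl | rfl : m = 0 ∨ m = 1 := by have := h.m1; omega
  all_goals simp

theorem hz : z = a ^ (2 * m + 2 : ℤ) := by
  have := ((h.uq _ (h.M.zpow_mem _).2 h.M.z_mul_self).resolve_left h.M.z_ne_one).symm
  obtain rfl | rfl : m = 0 ∨ m = 1 := by have := h.m1; omega
  all_goals simpa using this

theorem aA : a ∈ A := h.M.a_mem.2
theorem bA : b ∈ A := h.M.b_mem.2
theorem cz (ht : t ∈ T) : t * z = z * t := mem_cent1.1 (h.syl.le ht)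
theorem nQ : T ≤ 𝐍(T ⊓ A) := norm_inf (le_norm T) (h.syl.le.trans h.nm)
theorem nR : T ≤ 𝐍(T ⊓ 𝐂(A)) := norm_inf (le_norm T) (norm_cent (h.syl.le.trans h.nm))
theorem sQ : Syl 2 (T ⊓ A) A := h.syl.inf h.AC (h.syl.le.trans h.nm)
theorem sR : Syl 2 (T ⊓ 𝐂(A)) 𝐂(A) := h.syl.inf h.CC (norm_cent (h.syl.le.trans h.nm))
theorem pT (ht : t ∈ T) : IsPGroup 2 (zpowers t) := h.syl.pgroup.to_le (zpowers_le.2 ht)

theorem rsq (i : ℤ) : a ^ i * b * (a ^ i * b) = z := by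
  rw [h.M.refl_sq, h.hz, h.zeq]
  obtain rfl | rfl : m = 0 ∨ m = 1 := by have := h.m1; omega
  all_goals simp

theorem isq : a ^ (m + 1 : ℤ) * a ^ (m + 1 : ℤ) = z := by rw [h.hz, ← zpow_add]; congr 1; ring

theorem act (ht : t ∈ T) : ∃ e k, Act a b t e k ∧ (e = 1 ∨ e = 3 ∨ e = 5 ∨ e = 7) := by
  obtain ⟨e, he⟩ := mem_zpowers_iff.1 (conj_mem_of_norm (h.na ht) (mem_zpowers a))
  obtain ⟨k, hk⟩ := h.M.exists_refl (conj_mem_of_norm (h.nQ ht) h.M.b_mem) fun n => h.M.nmem (by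
    simpa [mul_assoc] using conj_mem_of_norm' (h.na ht) n)
  have := h.m1
  have o : ¬ 2 ∣ e := fun n => h.z1 (by
    have : t * z * t⁻¹ = a ^ (e * (2 * m + 2)) := by rw [h.hz, ← conj_zpow, ← he, ← zpow_mul]
    rw [h.cz ht, mul_inv_cancel_right] at this
    obtain ⟨l, rfl⟩ := n
    rw [this, ← zpow_zero a, h.zeq]
    obtain rfl | rfl : m = 0 ∨ m = 1 := by omega
    all_goals omega)
  exact ⟨e % 8, k, ⟨he.symm.trans (h.zeq.2 (by omega)), hk⟩, by omega⟩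

theorem cent (ht : t ∈ T) (ha : t * a = a * t) (hb : t * b = b * t) : t ∈ 𝐂(A) :=
  h.cq _ h.sQ t (h.syl.le ht) (h.pT ht) (le_cent1_iff.1 (h.M.le_of_mem (mem_cent1.2 ha.symm) (mem_cent1.2 hb.symm)))

theorem inn (ht : t ∈ T) (H : Act a b t e k) (he : a ^ e = a ^ (1 : ℤ) ∨ a ^ e = a ^ (-1 : ℤ)) (hk : 2 ∣ k) :
    ∃ q ∈ T ⊓ A, ∃ c ∈ T ⊓ 𝐂(A), t = q * c := by
  obtain ⟨j, rfl⟩ := hk
  obtain ⟨q, hq, e', K, f⟩ : ∃ q ∈ T ⊓ A, ∃ e', Act a b q e' (2 * j) ∧ a ^ e = a ^ e' :=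
    he.elim (fun f => ⟨_, h.M.zpow_mem j, _, act_a h.M j, f⟩) fun f => ⟨_, h.M.refl_mem j, _, act_b h.M j, f⟩
  have m := mul_mem (T.inv_mem hq.1) ht
  refine ⟨q, hq, _, ⟨m, h.cent m ?_ ?_⟩, (mul_inv_cancel_left q t).symm⟩
  · calc _ = q⁻¹ * (t * a * t⁻¹) * t := by group
      _ = _ := by rw [H.ha, f, ← K.ha]; group
  · calc _ = q⁻¹ * (t * b * t⁻¹) * t := by group
      _ = _ := by rw [H.hb, ← K.hb]; group

theorem innD (ht : t ∈ T) (H : Act a b t e k) (he : a ^ e = a ^ (1 : ℤ) ∨ a ^ e = a ^ (-1 : ℤ)) (hk : 2 ∣ k) :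
    t ∈ A ⊔ 𝐂(A) :=
  let ⟨_, hq, _, hc, f⟩ := h.inn ht H he hk
  f ▸ mul_mem (mem_sup_left hq.2) (mem_sup_right hc.2)

theorem dec (ht : t ∈ T) (hD : t ∈ A ⊔ 𝐂(A)) : ∃ q ∈ T ⊓ A, ∃ c ∈ T ⊓ 𝐂(A), t = q * c := by
  obtain ⟨x, hx, c, hc, rfl⟩ := (mem_sup_left_norm (cent_le_norm A)).1 hD
  obtain ⟨n, o, ho, f⟩ := Nat.exists_eq_two_pow_mul_odd (orderOf_pos x).ne'
  have cm : Commute x c := mem_cent.1 hc x hx
  obtain ⟨l, hl⟩ := h.syl.pgroup ⟨_, ht⟩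
  obtain ⟨j, hj⟩ : x * c ∈ zpowers ((x * c) ^ o) := mem_of_pow_mem_of_pow_mem (mem_zpowers _)
    (n := 2 ^ l) (by rw [show (x * c) ^ 2 ^ l = 1 from congrArg Subtype.val hl]; exact one_mem _)
    ((Nat.coprime_two_right.2 ho).pow_right l)
  have hx' := zpow_mem (pow_mem hx o) j
  have hc' : (c ^ o) ^ j ∈ 𝐂(A) := zpow_mem (pow_mem hc o) j
  have f' : x * c = (x ^ o) ^ j * (c ^ o) ^ j := by rw [← (cm.pow_pow o o).mul_zpow, ← cm.mul_pow]; exact hj.symm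
  have mq : (x ^ o) ^ j ∈ T ⊓ A := zpowers_le.1 (h.sQ.ge_of_norm_p' (zpowers_le.2 hx') ((pg_zp (n := n) (by
    rw [← pow_mul, mul_comm, ← f, pow_orderOf_eq_one])).to_le (zpowers_le.2 (zpow_mem (mem_zpowers _) j)))
    (zpowers_le.2 (by
      rw [eq_mul_inv_of_mul_eq f'.symm]
      exact mul_mem (h.nQ ht) (inv_mem (cent_le_norm _ (cent_anti inf_le_right hc'))))))
  exact ⟨_, mq, _, ⟨by rw [eq_inv_mul_of_mul_eq f'.symm]; exact mul_mem (T.inv_mem mq.1) ht, hc'⟩, f'⟩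

theorem out (ht : t ∈ T) (hD : t ∈ A ⊔ 𝐂(A)) (H : Act a b t e k) :
    (a ^ e = a ^ (1 : ℤ) ∨ a ^ e = a ^ (-1 : ℤ)) ∧ 2 ∣ k := by
  obtain ⟨q, hq, c, hc, rfl⟩ := h.dec ht hD
  have K := H.of_cent (mem_cent.1 hc.2 a h.aA) (mem_cent.1 hc.2 b h.bA)
  obtain ⟨i, rfl | rfl⟩ := h.M.mem_iff.1 hq
  · obtain ⟨f1, f2⟩ := K.eq (act_a h.M i)
    exact ⟨.inl f1, by rw [h.zeq] at f2; omega⟩
  · obtain ⟨f1, f2⟩ := K.eq (act_b h.M i)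
    exact ⟨.inr f1, by rw [h.zeq] at f2; omega⟩

theorem invo (H : Act a b t e k) (t2 : t * t = 1) : a ^ (e * k + k) = a ^ (0 : ℤ) := (t2 ▸ H.mul H).one.2

theorem sqD (ht : t ∈ T) : t * t ∈ A ⊔ 𝐂(A) := by
  obtain ⟨e, k, H, he⟩ := h.act ht
  have := h.m1
  refine h.innD (mul_mem ht ht) (H.mul H) (.inl (h.zeq.2 ?_)) ?_ <;> rcases he with rfl | rfl | rfl | rfl <;> omega

theorem cR (hc : c ∈ T ⊓ 𝐂(A)) (hd : d ∈ T ⊓ 𝐂(A)) : c * d = d * c :=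
  le_cent_iff.1 (abelian_cent (abelian_of_cyclic (h.cyc _ inf_le_right h.sR.pgroup))) c hc d hd

theorem rootR (hc : c ∈ T ⊓ 𝐂(A)) (hd : d ∈ T ⊓ 𝐂(A)) (e : c * c = d * d) : c = d ∨ c = d * z := by
  refine (h.uqC (mul_mem (inv_mem hd.2) hc.2) ?_).imp (fun f => (inv_mul_eq_one.1 f).symm) eq_mul_of_inv_mul_eq
  calc _ = d⁻¹ * (c * d⁻¹) * c := by group
    _ = _ := by rw [h.cR hc (inv_mem hd), mul_assoc, mul_assoc, e]; group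

/-- inner involutions -/
theorem dec2 (ht : t ∈ T) (hD : t ∈ A ⊔ 𝐂(A)) (t2 : t * t = 1) (t1 : t ≠ 1) (tz : t ≠ z) :
    ∃ q ∈ T ⊓ A, ∃ c ∈ T ⊓ 𝐂(A), t = q * c ∧ q * q = z ∧ c * c = z := by
  obtain ⟨q, hq, c, hc, rfl⟩ := h.dec ht hD
  have f : q * q * (c * c) = 1 := by
    rw [← t2, mul_assoc, mul_assoc, ← mul_assoc c q, ← mem_cent.1 hc.2 q hq.2, mul_assoc]
  have g : q * q ∈ 𝐂(A) := eq_inv_of_mul_eq_one_left f ▸ inv_mem (mul_mem hc.2 hc.2)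
  rcases h.uqC g (h.M.quat_central (mul_mem hq hq) fun s hs => mem_cent.1 g s hs.2) with l | l
  · rw [l, one_mul] at f
    have : q * c ∈ A := mul_mem hq.2 ((h.uqC hc.2 f).elim (· ▸ one_mem _) (· ▸ h.mz))
    exact ((h.uq _ this t2).elim t1 tz).elim
  · exact ⟨q, hq, c, hc, rfl, l, by rw [l] at f; exact mul_left_cancel (f.trans h.z2.symm)⟩

theorem anti (ht : t ∈ T) (t2 : t * t = 1) (t1 : t ≠ 1) (tz : t ≠ z) : ∃ y ∈ T, y * t * y⁻¹ = t * z := by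
  obtain ⟨x, hx, f⟩ : ∃ x ∈ T, t * x * t⁻¹ = z * x := by
    obtain ⟨e, k, H, he⟩ := h.act ht
    have i := h.zeq.1 (h.invo H t2)
    by_cases f : a ^ e = a ^ (1 : ℤ)
    · refine ⟨b, h.M.b_mem.1, ?_⟩
      rw [H.hb, h.hz, mul_left_inj, h.zeq]
      have : ¬ a ^ k = a ^ (0 : ℤ) := fun l => (h.uqC (h.cent ht (mul_inv_eq_iff_eq_mul.1 (by rw [H.ha, f, zpow_one]))
        (mul_inv_eq_iff_eq_mul.1 (by rw [H.hb, l, zpow_zero, one_mul]))) t2).elim t1 tz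
      rw [h.zeq] at f this
      rcases he with rfl | rfl | rfl | rfl <;> omega
    rw [h.zeq] at f
    rcases he with rfl | rfl | rfl | rfl
    · omega
    · exact ⟨_, (h.M.zpow_mem (m + 1)).1, by rw [H.zp, h.hz, ← zpow_add, h.zeq]; omega⟩
    · exact ⟨_, (h.M.zpow_mem 1).1, by rw [H.zp, h.hz, ← zpow_add, h.zeq]; omega⟩
    · exact ⟨_, (h.M.zpow_mem (m + 1)).1, by rw [H.zp, h.hz, ← zpow_add, h.zeq]; omega⟩
  refine ⟨x⁻¹, inv_mem hx, ?_⟩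
  calc _ = x⁻¹ * (t * x * t⁻¹) * t := by group
    _ = _ := by rw [f, ← h.cz hx, h.cz ht]; group

theorem three (hs : s ∈ T) (ht : t ∈ T) (s2 : s * s = 1) (t2 : t * t = 1) (st : s * t * (s * t) = 1) :
    s ∈ A ⊔ 𝐂(A) ∨ t ∈ A ⊔ 𝐂(A) ∨ s * t ∈ A ⊔ 𝐂(A) := by
  obtain ⟨e, k, H, he⟩ := h.act hs
  obtain ⟨e', k', H', he'⟩ := h.act ht
  by_contra! n
  have n1 : ¬ (_ ∧ _) := fun ⟨a, b⟩ => n.1 (h.innD hs H a b)
  have n2 : ¬ (_ ∧ _) := fun ⟨a, b⟩ => n.2.1 (h.innD ht H' a b)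
  have n3 : ¬ (_ ∧ _) := fun ⟨a, b⟩ => n.2.2 (h.innD (mul_mem hs ht) (H.mul H') a b)
  have i1 := h.invo H s2
  have i2 := h.invo H' t2
  have i3 := h.invo (H.mul H') st
  simp only [h.zeq] at n1 n2 n3 i1 i2 i3
  rcases he with rfl | rfl | rfl | rfl <;> rcases he' with rfl | rfl | rfl | rfl <;> omega

theorem intoD (hG : pResidual 2 G = ⊤) (hT : Syl 2 T ⊤) (y2 : y * y = 1) : ∃ g, g * y * g⁻¹ ∈ A ⊔ 𝐂(A) := by
  have key : ∀ {t e k}, Act a b t e k → (((t * a * t⁻¹ = a ^ (1 : ℤ) ∨ t * a * t⁻¹ = a ^ (-1 : ℤ)) ↔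
      ∃ j : ℤ, t * b * t⁻¹ = a ^ (2 * j) * b) ↔ ((a ^ e = a ^ (1 : ℤ) ∨ a ^ e = a ^ (-1 : ℤ)) ↔ 2 ∣ k)) := fun {t e k} H => by
    rw [H.ha, H.hb]
    refine iff_congr Iff.rfl ⟨fun ⟨j, f⟩ => ?_, fun ⟨j, f⟩ => ⟨j, by rw [f]⟩⟩
    have := h.zeq.1 (mul_right_cancel f)
    omega
  obtain ⟨g, hg, P⟩ := transfer_pred hG hT (fun t => (t * a * t⁻¹ = a ^ (1 : ℤ) ∨ t * a * t⁻¹ = a ^ (-1 : ℤ)) ↔
      ∃ j : ℤ, t * b * t⁻¹ = a ^ (2 * j) * b) (fun s hs t ht => by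
    obtain ⟨e, k, H, he⟩ := h.act hs
    obtain ⟨e', k', H', he'⟩ := h.act ht
    rw [key H, key H', key (H.mul H')]
    simp only [h.zeq]
    have := h.m1
    rcases he with rfl | rfl | rfl | rfl <;> rcases he' with rfl | rfl | rfl | rfl <;> omega) y2
  obtain ⟨e, k, H, he⟩ := h.act hg
  have i := h.invo H (by rw [conj_mul, y2]; simp)
  rw [key H] at P
  have : (a ^ e = a ^ (1 : ℤ) ∨ a ^ e = a ^ (-1 : ℤ)) ∧ 2 ∣ k := by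
    simp only [h.zeq] at i P ⊢
    rcases he with rfl | rfl | rfl | rfl <;> omega
  exact ⟨g, h.innD hg H this.1 this.2⟩

end Lc

end Cfsg.Lib.QC
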