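import Cfsg.Agent.Lib.QC.Loc

/-!
# A normal subgroup of `C(z)` with quaternion Sylow subgroups of order 8 or 16: the 2-rank is 2
-/

set_option autoImplicit false

namespace Cfsg.Lib.QC

open Subgroup Cfsg.Lib.BG Cfsg.Lib.Inv
open scoped Cfsg.Lib.Transfer

variable {G : Type*} [Group G] [Finite G] {A T Q C N : Subgroup G} {z a b c d g p q r s t u v w x y : G} {m : ℕ}
  {e k e' k' i j : ℤ}

omit [Finite G] in
theorem cj2 (g : G) (h : x * x = 1) : g * x * g⁻¹ * (g * x * g⁻¹) = 1 := by rw [conj_mul, h, mul_one, mul_inv_cancel]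

omit [Finite G] in
theorem cjc (g : G) (h : x * y = y * x) : g * x * g⁻¹ * (g * y * g⁻¹) = g * y * g⁻¹ * (g * x * g⁻¹) := by
  rw [conj_mul, conj_mul, h]

omit [Finite G] in
theorem mul2 (s2 : s * s = 1) (t2 : t * t = 1) (st : s * t = t * s) : s * t * (s * t) = 1 := by
  rw [mul_assoc, ← mul_assoc t, ← st, mul_assoc, t2, mul_one, s2]

omit [Finite G] in
theorem Hy.sq_of (h : Hy A z) (e : g * u * g⁻¹ = z) : u * u = 1 := by rw [← conj_eq_one_iff (a := g), ← conj_mul, e, h.z2]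

omit [Finite G] in
theorem pg_two (s2 : s * s = 1) (t2 : t * t = 1) (st : s * t = t * s) : IsPGroup 2 (zpowers s ⊔ zpowers t : Subgroup G) :=
  isPGroup_sup_of_commute (pg_inv s2) (pg_inv t2) (le_cent_iff.1 (zpowers_le.2 ((cent_zpowers t).ge (mem_cent1.2 st))))

theorem Lc.top (h : Lc A T z a b m) : Syl 2 T ⊤ := h.syl.of_norm_le le_top fun g hg => by
  have m := conj_mem_of_norm hg.2 (h.mT h.syl)
  have c : ∀ t ∈ T, g * z * g⁻¹ * t = t * (g * z * g⁻¹) := fun t ht => by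
    calc _ = g * (z * (g⁻¹ * t * g)) * g⁻¹ := by group
      _ = _ := by rw [← h.cz (conj_mem_of_norm' hg.2 ht)]; group
  rcases h.uqC (h.cent m (c a h.M.a_mem.1) (c b h.M.b_mem.1)) (cj2 g h.z2) with e | e
  · exact (h.z1 (conj_eq_one_iff.1 e)).elim
  · exact mem_cent1.2 (mul_inv_eq_iff_eq_mul.1 e)

namespace Hy

variable (h : Hy A z)
include h

theorem lc1 (hx : x ∈ 𝐂[z]) (p : IsPGroup 2 (zpowers x)) : ∃ T a b m, Lc A T z a b m ∧ x ∈ T :=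
  let ⟨T, a, b, m, L, l⟩ := h.lc' p (zpowers_le.2 hx)
  ⟨T, a, b, m, L, l (mem_zpowers x)⟩

theorem lc2 (hs : s ∈ 𝐂[z]) (ht : t ∈ 𝐂[z]) (s2 : s * s = 1) (t2 : t * t = 1) (st : s * t = t * s) :
    ∃ T a b m, Lc A T z a b m ∧ s ∈ T ∧ t ∈ T :=
  let ⟨T, a, b, m, L, l⟩ := h.lc' (pg_two s2 t2 st) (sup_le (zpowers_le.2 hs) (zpowers_le.2 ht))
  ⟨T, a, b, m, L, l (mem_sup_left (mem_zpowers s)), l (mem_sup_right (mem_zpowers t))⟩

theorem sqD (hx : x ∈ 𝐂[z]) (e : x * x * (x * x) = 1) : x * x ∈ A ⊔ 𝐂(A) :=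
  let ⟨_, _, _, _, L, l⟩ := h.lc1 hx (pg_zp (n := 2) (by rw [← e]; simp [pow_succ, mul_assoc]))
  L.sqD l

theorem anti (ht : t ∈ 𝐂[z]) (t2 : t * t = 1) (t1 : t ≠ 1) (tz : t ≠ z) : ∃ y, y * t * y⁻¹ = t * z :=
  let ⟨_, _, _, _, L, l⟩ := h.lc1 ht (pg_inv t2)
  let ⟨y, _, e⟩ := L.anti l t2 t1 tz
  ⟨y, e⟩

theorem dec (hD : t ∈ A ⊔ 𝐂(A)) (t2 : t * t = 1) (t1 : t ≠ 1) (tz : t ≠ z) :
    ∃ q ∈ A, ∃ c ∈ 𝐂(A), t = q * c ∧ q * q = z ∧ c * c = z :=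
  let ⟨_, _, _, _, L, l⟩ := h.lc1 (h.DC hD) (pg_inv t2)
  let ⟨q, hq, c, hc, e⟩ := L.dec2 l hD t2 t1 tz
  ⟨q, hq.2, c, hc.2, e⟩

theorem two (hs : s ∈ A ⊔ 𝐂(A)) (ht : t ∈ A ⊔ 𝐂(A)) (s2 : s * s = 1) (t2 : t * t = 1) (st : s * t = t * s)
    (s1 : s ≠ 1) (sz : s ≠ z) (t1 : t ≠ 1) (tz : t ≠ z) : s = t ∨ s = t * z := by
  obtain ⟨T, a, b, m, L, ms, mt⟩ := h.lc2 (h.DC hs) (h.DC ht) s2 t2 st
  obtain ⟨q, hq, c, hc, rfl, q2, c2⟩ := L.dec2 ms hs s2 s1 sz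
  obtain ⟨r, hr, d, hd, rfl, r2, d2⟩ := L.dec2 mt ht t2 t1 tz
  have f : q * r = r * q := by
    rw [mul_assoc, ← mul_assoc c, ← mem_cent.1 hc.2 r hr.2, mul_assoc r d, ← mul_assoc d, ← mem_cent.1 hd.2 q hq.2,
      mul_assoc, mul_assoc q, L.cR hc hd, ← mul_assoc, ← mul_assoc r] at st
    exact mul_right_cancel st
  have g : q = r ∨ q = r * z := (h.uq _ (mul_mem (inv_mem hr.2) hq.2) (by
    calc _ = r⁻¹ * (r⁻¹ * (r * q) * r⁻¹) * q := by group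
      _ = r⁻¹ * r⁻¹ * (q * q) := by rw [← f]; group
      _ = 1 := by rw [q2, ← r2]; group)).imp (fun f => (inv_mul_eq_one.1 f).symm) eq_mul_of_inv_mul_eq
  rcases g with rfl | rfl <;> rcases L.rootR hc hd (c2.trans d2.symm) with rfl | rfl
  · exact .inl rfl
  · exact .inr (mul_assoc ..).symm
  · exact .inr (by rw [mul_assoc, mul_assoc, L.cz hc.1])
  · exact .inl (by rw [mul_assoc, L.cz hd.1, ← mul_assoc z, h.z2, one_mul])

theorem cjD (hs : s ∈ A ⊔ 𝐂(A)) (ht : t ∈ A ⊔ 𝐂(A)) (s2 : s * s = 1) (t2 : t * t = 1)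
    (s1 : s ≠ 1) (sz : s ≠ z) (t1 : t ≠ 1) (tz : t ≠ z) : ∃ g, g * s * g⁻¹ = t := by
  obtain ⟨q, hq, c, hc, rfl, q2, c2⟩ := h.dec hs s2 s1 sz
  obtain ⟨T, a, b, m, L, mt⟩ := h.lc1 (h.DC ht) (pg_inv t2)
  obtain ⟨y, -, hy⟩ := L.anti mt t2 t1 tz
  obtain ⟨r, hr, d, hd, rfl, r2, d2⟩ := L.dec2 mt ht t2 t1 tz
  obtain ⟨g, hg, e⟩ := h.fa q hq r hr.2 q2 r2
  obtain ⟨k, hk, f⟩ := L.sR.exists_conj_le (pg_zp (x := c) (n := 2) (by
    rw [← h.z2, ← c2]; simp [pow_succ, mul_assoc])) (zpowers_le.2 hc)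
  have f' := L.rootR (f (Transfer.conj_mem_conj.2 (mem_zpowers c))) hd (by
    rw [conj_mul, c2, d2, mem_cent1.1 (h.CC hk), mul_inv_cancel_right])
  have l : g * k * (q * c) * (g * k)⁻¹ = g * q * g⁻¹ * (k * c * k⁻¹) := by
    rw [mul_assoc _ g⁻¹, mem_cent.1 (mul_mem (mul_mem hk hc) (inv_mem hk)) _ (inv_mem hg), mul_assoc g, ← mul_assoc k,
      ← mem_cent.1 hk q hq]
    group
  have : g * k * (q * c) * (g * k)⁻¹ = r * d ∨ g * k * (q * c) * (g * k)⁻¹ = r * d * z := by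
    rcases e with e | e <;> rcases f' with f' | f' <;> rw [l, e, f']
    · exact .inl rfl
    · exact .inr (mul_assoc ..).symm
    · exact .inr (by rw [mul_assoc, mul_assoc, L.cz hd.1])
    · exact .inl (by rw [mul_assoc, L.cz hd.1, ← mul_assoc z, h.z2, one_mul])
  refine this.elim (fun e => ⟨_, e⟩) fun e => ⟨y⁻¹ * (g * k), ?_⟩
  calc _ = y⁻¹ * (g * k * (q * c) * (g * k)⁻¹) * y := by group
    _ = _ := by rw [e, ← hy]; group

end Hy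

/-- `q` is inner for the conjugate `p` of `z` -/
def In (A : Subgroup G) (z p q : G) : Prop := ∃ g, g * p * g⁻¹ = z ∧ g * q * g⁻¹ ∈ A ⊔ 𝐂(A)

omit [Finite G] in
theorem In.base (h : q ∈ A ⊔ 𝐂(A)) : In A z z q := ⟨1, by simp, by simpa using h⟩

namespace Hy

variable (h : Hy A z)
include h

omit [Finite G] in
theorem of_in (H : In A z p q) (e : g * p * g⁻¹ = z) : g * q * g⁻¹ ∈ A ⊔ 𝐂(A) := by
  obtain ⟨k, f, m⟩ := H
  have := conj_mem_of_norm (h.nD (mem_cent1.2 (show g * k⁻¹ * z = z * (g * k⁻¹) by nth_rw 1 [← f, ← e]; group))) m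
  convert this using 1
  group

theorem sym (H : In A z p q) (hq : g * q * g⁻¹ = z) (n : q ≠ p) : In A z q p := by
  obtain ⟨k, f, m⟩ := H
  have q2 := h.sq_of hq
  obtain ⟨r, hr, c, hc, e, r2, c2⟩ := h.dec m (cj2 k q2) (fun e => h.z1 (by rw [← hq, conj_eq_one_iff.1 e]; simp))
    fun e => n (by simpa using e.trans f.symm)
  have l : g * k⁻¹ * c * (g * k⁻¹)⁻¹ * (g * k⁻¹ * c * (g * k⁻¹)⁻¹) = g * p * g⁻¹ := by rw [conj_mul, c2, ← f]; group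
  refine ⟨g, hq, l ▸ h.sqD (mem_cent1.2 ?_) (by rw [conj_mul, c2, cj2 _ h.z2])⟩
  rw [show z = g * k⁻¹ * (r * c) * (g * k⁻¹)⁻¹ by rw [← e, ← hq]; group]
  exact cjc _ (by rw [← mul_assoc, ← mem_cent.1 hc r hr])

theorem two' (H : In A z p s) (H' : In A z p t) (s2 : s * s = 1) (t2 : t * t = 1) (st : s * t = t * s)
    (s1 : s ≠ 1) (sz : s ≠ p) (t1 : t ≠ 1) (tz : t ≠ p) : s = t ∨ s = t * p := by
  obtain ⟨g, e, m⟩ := H
  refine (h.two m (h.of_in H' e) (cj2 g s2) (cj2 g t2) (cjc g st) (conj_eq_one_iff.not.2 s1) (fun f => sz ?_)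
    (conj_eq_one_iff.not.2 t1) fun f => tz ?_).imp (fun f => by simpa using f) fun f => ?_
  · simpa using f.trans e.symm
  · simpa using f.trans e.symm
  · rw [← e, conj_mul] at f
    simpa using f

theorem three (e : g * p * g⁻¹ = z) (hs : s * p = p * s) (ht : t * p = p * t) (s2 : s * s = 1) (t2 : t * t = 1)
    (st : s * t = t * s) : In A z p s ∨ In A z p t ∨ In A z p (s * t) := by
  obtain ⟨T, a, b, m, L, ms, mt⟩ := h.lc2 (mem_cent1.2 (e ▸ cjc g hs)) (mem_cent1.2 (e ▸ cjc g ht)) (cj2 g s2) (cj2 g t2)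
    (cjc g st)
  refine (L.three ms mt (cj2 g s2) (cj2 g t2) ?_).imp (fun m => ⟨g, e, m⟩) (.imp (fun m => ⟨g, e, m⟩) fun m => ⟨g, e, ?_⟩)
  · rw [conj_mul]
    exact cj2 g (mul2 s2 t2 st)
  · rwa [conj_mul] at m

/-- one class of involutions: the Fano plane -/
theorem fano (c : ∀ x, x * x = 1 → x ≠ 1 → ∃ g, g * x * g⁻¹ = z) (hs : s ∈ A ⊔ 𝐂(A)) (ht : t * z = z * t) (s2 : s * s = 1)
    (t2 : t * t = 1) (st : s * t = t * s) (s1 : s ≠ 1) (sz : s ≠ z) (n : t ∉ zpowers z ⊔ zpowers s) : False := by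
  have mz := mem_sup_left (T := zpowers s) (mem_zpowers z)
  have ms := mem_sup_right (S := zpowers z) (mem_zpowers s)
  have cs := mem_cent1.1 (h.DC hs)
  have t1 : t ≠ 1 := fun e => n (e ▸ one_mem _)
  have key : ∀ x ∈ zpowers z ⊔ zpowers s, ∀ y ∈ zpowers z ⊔ zpowers s, x * x = 1 → x ≠ 1 → y * y = 1 → y ≠ 1 → y ≠ x →
      t * y = y * t → In A z t x → In A z x y → False := fun x mx y my x2 x1 y2 y1 yx c' H H' => by
    obtain ⟨g, e⟩ := c x x2 x1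
    rcases h.two' (h.sym H e fun e => n (e ▸ mx)) H' t2 y2 c' t1 (fun e => n (e ▸ mx)) y1 yx with f | f
    exacts [n (f ▸ my), n (f ▸ mul_mem my mx)]
  obtain ⟨g, e⟩ := c t t2 t1
  have zs2 := mul2 h.z2 s2 cs.symm
  have zs1 : z * s ≠ 1 := fun e => sz (mul_left_cancel (e.trans h.z2.symm))
  rcases h.three e ht.symm st h.z2 s2 cs.symm with H | H | H
  · exact key z mz s ms h.z2 h.z1 s2 s1 sz st.symm H (.base hs)
  · obtain ⟨k, f⟩ := c s s2 s1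
    exact key s ms z mz s2 s1 h.z2 h.z1 sz.symm ht H (h.sym (.base hs) f sz)
  · obtain ⟨k, f⟩ := c _ zs2 zs1
    exact key _ (mul_mem mz ms) z mz zs2 zs1 h.z2 h.z1 (fun e => s1 (left_eq_mul.1 e)) ht H
      (h.sym (.base (mul_mem (mem_sup_left h.mz) hs)) f fun e => s1 (mul_eq_left.1 e))

/-- no root of `z` commutes with another conjugate -/
theorem n4 (H2 : ∀ g, g * z * g⁻¹ ∈ A ⊔ 𝐂(A) → g * z * g⁻¹ = z) (e : g * v * g⁻¹ = z) (n : v ≠ z) (x2 : x * x = z)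
    (c : x * v = v * x) : False := by
  have := H2 g (by
    rw [← x2, ← conj_mul]
    exact h.sqD (mem_cent1.2 (e ▸ cjc g c)) (by rw [conj_mul, x2, cj2 g h.z2]))
  exact n (by simpa using e.trans this.symm)

end Hy

namespace Lc

variable (h : Lc A T z a b m) (H2 : ∀ g, g * z * g⁻¹ ∈ A ⊔ 𝐂(A) → g * z * g⁻¹ = z)
include h H2

theorem pat (hv : v ∈ T) (e : g * v * g⁻¹ = z) (n : v ≠ z) : ∃ k, Act a b v (-1) k ∧ ¬ 2 ∣ k := by
  obtain ⟨f, k, H, hf⟩ := h.act hv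
  have i := h.zeq.1 (h.invo H (h.sq_of e))
  have n1 : ¬ a ^ (f * (m + 1)) = a ^ (m + 1 : ℤ) := fun l =>
    h.n4 H2 e n h.isq (mul_inv_eq_iff_eq_mul.1 ((H.zp _).trans l)).symm
  have n2 : ∀ i, ¬ a ^ (f * i + k) = a ^ i := fun i l =>
    h.n4 H2 e n (h.rsq i) (mul_inv_eq_iff_eq_mul.1 ((H.rf i).trans (by rw [l]))).symm
  have n3 := n2 (k / 2)
  have n4 := n2 (-k / 2)
  have := h.m1
  rw [h.zeq] at n1 n3 n4
  refine ⟨k, ⟨H.ha.trans (h.zeq.2 ?_), H.hb⟩, ?_⟩ <;> rcases hf with rfl | rfl | rfl | rfl <;> omega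

variable (hu : u ∈ T) (eu : g * u * g⁻¹ = z) (nu : u ≠ z)
include hu eu nu

theorem invR (hr : r ∈ T ⊓ 𝐂(A)) (r2 : r * r = z) : u * r * u⁻¹ = r * z :=
  (h.rootR (conj_mem_of_norm (h.nR hu) hr) hr (by rw [conj_mul, r2, h.cz hu, mul_inv_cancel_right])).resolve_left fun e =>
    h.n4 H2 eu nu r2 (mul_inv_eq_iff_eq_mul.1 e).symm

theorem ur2 (hr : r ∈ T ⊓ 𝐂(A)) (r2 : r * r = z) : u * r * (u * r) = 1 := by
  have u2 := h.sq_of eu
  calc _ = u * r * u⁻¹ * (u * u) * r := by group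
    _ = 1 := by rw [h.invR H2 hu eu nu hr r2, u2, mul_one, mul_assoc, ← h.cz hr.1, ← mul_assoc, r2, h.z2]

omit H2 hu eu nu in
theorem u1 (hr : r ∈ T ⊓ 𝐂(A)) (r2 : r * r = z) : a ^ (m + 1 : ℤ) * r * (a ^ (m + 1 : ℤ) * r) = 1 ∧
    a ^ (m + 1 : ℤ) * r ∉ A := by
  refine ⟨by rw [mul_assoc, ← mul_assoc r, ← mem_cent.1 hr.2 _ (zpow_mem h.aA _), mul_assoc, r2, ← mul_assoc, h.isq, h.z2],
    fun n => h.z1 (r2 ▸ h.M.quat_central ⟨hr.1, (mul_mem_cancel_left (zpow_mem h.aA _)).1 n⟩ fun s hs => mem_cent.1 hr.2 s hs.2)⟩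

theorem nconj (hr : r ∈ T ⊓ 𝐂(A)) (r2 : r * r = z) (hq : q ∈ T ⊓ A) (e : u * r * q * (u * r * q) = 1) :
    x * (u * r * q) * x⁻¹ ≠ z := fun f => by
  obtain ⟨k, H, hk⟩ := h.pat H2 hu eu nu
  have K := H.cent (mem_cent.1 hr.2 a h.aA) (mem_cent.1 hr.2 b h.bA)
  have w2 := h.ur2 H2 hu eu nu hr r2
  obtain ⟨v2, nv⟩ := h.u1 hr r2
  have c := mem_cent.1 hr.2 _ (zpow_mem h.aA (m + 1 : ℤ))
  have l : u * (a ^ (m + 1 : ℤ) * r) * u⁻¹ = a ^ (m + 1 : ℤ) * r := by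
    rw [← conj_mul, H.zp, h.invR H2 hu eu nu hr r2, h.cz hr.1, ← mul_assoc, h.hz, ← zpow_add]
    congr 2; ring
  obtain ⟨y, -, e1⟩ := K.cj h.M hk w2 hq e
  obtain ⟨y', -, e2⟩ := K.cj h.M hk w2 (h.M.zpow_mem (m + 1)) (by
    rw [mul_assoc u r, ← c]; exact mul2 (h.sq_of eu) v2 (mul_inv_eq_iff_eq_mul.1 l))
  rw [mul_assoc u r (a ^ _), ← c, mul_inv_eq_iff_eq_mul.1 l] at e2
  have mD : a ^ (m + 1 : ℤ) * r ∈ A ⊔ 𝐂(A) := mul_mem (mem_sup_left (zpow_mem h.aA _)) (mem_sup_right hr.2)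
  replace l := mul_inv_eq_iff_eq_mul.1 l
  generalize a ^ (m + 1 : ℤ) * r = v at *
  obtain ⟨s, e3⟩ := h.toHy.anti (mem_cent1.2 (eu ▸ cjc g l.symm)) (cj2 g v2)
    (conj_eq_one_iff.not.2 fun e => nv (e ▸ one_mem _)) fun e => nu (by
      have : v = u := by simpa using e.trans eu.symm
      rw [show u = g⁻¹ * z * g⁻¹⁻¹ by rw [← eu]; group] at this ⊢
      exact H2 _ (this ▸ mD))
  have e4 : v = (x * y * y'⁻¹ * g⁻¹ * s * g)⁻¹ * z * (x * y * y'⁻¹ * g⁻¹ * s * g)⁻¹⁻¹ := by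
    rw [← eu, conj_mul, ← e2] at e3
    rw [← f, ← e1]
    calc _ = g⁻¹ * s⁻¹ * (s * (g * v * g⁻¹) * s⁻¹) * s * g := by group
      _ = _ := by rw [e3]; group
  exact nv (e4 ▸ (H2 _ (e4 ▸ mD)).symm ▸ h.mz)

theorem sqR (hc : c ∈ T ⊓ 𝐂(A)) : c * c = 1 ∨ c * c = z := by
  obtain ⟨n, hn⟩ := h.syl.pgroup ⟨c, hc.1⟩
  replace hn : c ^ 2 ^ n = 1 := congrArg Subtype.val hn
  induction n generalizing c with
  | zero => exact .inl (by simp [show c = 1 by simpa using hn])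
  | succ n ih =>
    refine h.uqC (mul_mem hc.2 hc.2) ((ih (mul_mem hc hc) (by rw [← sq, ← pow_mul, ← pow_succ', hn])).resolve_right fun e => ?_)
    have md := conj_mem_of_norm (h.nR hu) hc
    have u2 := h.sq_of eu
    have l : u * (u * c * u⁻¹ * c⁻¹) * 1 = c * u * c⁻¹ := by
      rw [← mul_assoc, ← mul_assoc, ← mul_assoc, u2, inv_eq_of_mul_eq_one_right u2]; group
    refine h.nconj H2 hu eu nu (mul_mem md (inv_mem hc)) ?_ (one_mem _) (l ▸ cj2 c u2) (x := g * c⁻¹) (by rw [l, ← eu]; group)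
    calc _ = u * c * u⁻¹ * (c⁻¹ * (u * c * u⁻¹)) * c⁻¹ := by group
      _ = u * (c * c) * u⁻¹ * (c * c)⁻¹ := by rw [h.cR (inv_mem hc) md]; group
      _ = z := by rw [h.invR H2 hu eu nu (mul_mem hc hc) e, h.cz (mul_mem hc.1 hc.1), mul_inv_cancel_right]

theorem cmu (ht : t ∈ T) : u * t * u⁻¹ * t⁻¹ ∈ A := by
  have u2 := h.sq_of eu
  have mv := mul_mem (mul_mem ht hu) (inv_mem ht)
  have ev : g * t⁻¹ * (t * u * t⁻¹) * (g * t⁻¹)⁻¹ = z := by rw [← eu]; group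
  obtain ⟨k, H, hk⟩ := h.pat H2 hu eu nu
  obtain ⟨k', H', hk'⟩ := h.pat H2 mv ev fun e => nu (by
    rw [← h.cz ht |> mul_inv_eq_iff_eq_mul.2] at e; simpa using e)
  obtain ⟨q, hq, c, hc, e⟩ := h.inn (mul_mem hu mv) (H.mul H') (.inl rfl) (by omega)
  rw [inv_eq_of_mul_eq_one_right u2, mul_assoc u, mul_assoc u, e]
  rcases h.sqR H2 hu eu nu hc with f | f
  · exact mul_mem hq.2 ((h.uqC hc.2 f).elim (· ▸ one_mem _) (· ▸ h.mz))
  · have l : u * c * q = t * u * t⁻¹ := by rw [mul_assoc, ← mem_cent.1 hc.2 q hq.2, ← e, ← mul_assoc, u2, one_mul]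
    exact (h.nconj H2 hu eu nu hc f hq (l ▸ cj2 t u2) (l ▸ ev)).elim

theorem abel (hs : s ∈ T) (ht : t ∈ T) : s * t * s⁻¹ * t⁻¹ ∈ A := by
  have k1 : ∀ x ∈ T, ∀ y, (∀ t ∈ T, x * t * x⁻¹ * t⁻¹ ∈ A) → (∀ t ∈ T, y * t * y⁻¹ * t⁻¹ ∈ A) →
      ∀ t ∈ T, x * y * t * (x * y)⁻¹ * t⁻¹ ∈ A := fun x hx y a b t ht => by
    convert mul_mem (conj_mem_of_norm (h.nm (h.syl.le hx)) (b t ht)) (a t ht) using 1
    group
  have k2 : ∀ x ∈ T, x ∈ A ⊔ 𝐂(A) → ∀ t ∈ T, x * t * x⁻¹ * t⁻¹ ∈ A := fun x hx hD => by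
    obtain ⟨q, hq, c, hc, rfl⟩ := h.dec hx hD
    refine k1 q hq.1 c (fun t ht => ?_) fun t ht => ?_
    · have := A.mul_mem hq.2 (conj_mem_of_norm (h.nm (h.syl.le ht)) (A.inv_mem hq.2))
      rwa [← mul_assoc, ← mul_assoc] at this
    · have md := conj_mem_of_norm (h.nR ht) hc
      have : t * c * t⁻¹ * (t * c * t⁻¹) = c * c := by
        rcases h.sqR H2 hu eu nu hc with f | f <;> rw [conj_mul, f]
        · simp
        · rw [h.cz ht, mul_inv_cancel_right]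
      rw [show c * t * c⁻¹ * t⁻¹ = c * (t * c * t⁻¹)⁻¹ by group]
      rcases h.rootR hc md this.symm with f | f
      · rw [← f, mul_inv_cancel]; exact one_mem _
      · nth_rw 1 [f]
        rw [h.cz md.1, mul_inv_cancel_right]; exact h.mz
  obtain ⟨k, H, hk⟩ := h.pat H2 hu eu nu
  have k3 : ∀ x ∈ T, ∀ e k, Act a b x e k → (a ^ e = a ^ (1 : ℤ) ∨ a ^ e = a ^ (-1 : ℤ)) → ∀ t ∈ T, x * t * x⁻¹ * t⁻¹ ∈ A :=
    fun x hx e l K he => by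
    by_cases d : 2 ∣ l
    · exact k2 x hx (h.innD hx K he d)
    have := k1 u hu _ (fun t => h.cmu H2 hu eu nu) (k2 _ (mul_mem hu hx) (h.innD (mul_mem hu hx) (H.mul K) (by
      simp only [h.zeq] at he ⊢; omega) (by omega)))
    rwa [← mul_assoc, h.sq_of eu, one_mul] at this
  obtain ⟨e, l, K, he⟩ := h.act hs
  obtain ⟨e', l', K', he'⟩ := h.act ht
  by_cases d : a ^ e = a ^ (1 : ℤ) ∨ a ^ e = a ^ (-1 : ℤ)
  · exact k3 s hs _ _ K d t ht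
  by_cases d' : a ^ e' = a ^ (1 : ℤ) ∨ a ^ e' = a ^ (-1 : ℤ)
  · convert inv_mem (k3 t ht _ _ K' d' s hs) using 1
    group
  convert conj_mem_of_norm' (h.nm (h.syl.le ht)) (k3 _ (mul_mem ht hs) _ _ (K'.mul K) (by
    have := h.m1
    simp only [h.zeq] at d d' ⊢
    rcases he with rfl | rfl | rfl | rfl <;> rcases he' with rfl | rfl | rfl | rfl <;> omega) t ht) using 1
  group

theorem no_root (hG : pResidual 2 G = ⊤) (hr : r ∈ T ⊓ 𝐂(A)) (r2 : r * r = z) : False := by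
  obtain ⟨v2, nv⟩ := h.u1 hr r2
  obtain ⟨x, K, le, n, m, l⟩ := transfer_ab hG h.top (fun s hs t ht => h.abel H2 hu eu nu hs ht) hr.1
    (fun n => nv (mul_mem (zpow_mem h.aA _) n)) v2 (pg_zp (x := r) (n := 2) (by rw [← h.z2, ← r2]; simp [pow_succ, mul_assoc]))
    (zpowers_le.2 (mem_cent1.2 (by rw [← mul_assoc, ← mem_cent.1 hr.2 _ (zpow_mem h.aA _)])))
  have e := H2 x (by rw [← r2, ← conj_mul]; exact h.sqD (l (Transfer.conj_mem_conj.2 (mem_zpowers r))))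
  have c := mem_cent1.2 (mul_inv_eq_iff_eq_mul.1 e)
  obtain ⟨q, hq, d, hd, f, -, d2⟩ := h.dec2 m.1 (conj_mem_of_norm (h.nD c) (mul_mem (mem_sup_left (zpow_mem h.aA _))
    (mem_sup_right hr.2))) (cj2 x v2) (conj_eq_one_iff.not.2 fun e => nv (e ▸ one_mem _)) fun f => nv (by
      rw [← e, mul_left_inj, mul_right_inj] at f; exact f ▸ h.mz)
  have md : d ∈ K := (mul_mem_cancel_left (le hq)).1 (f ▸ m.2)
  rcases h.rootR hr hd (r2.trans d2.symm) with f | f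
  exacts [n (f ▸ md), n (f ▸ mul_mem md (le ⟨h.mT h.syl, h.mz⟩))]

end Lc

theorem Hy.rank (h : Hy A z) (hG : pResidual 2 G = ⊤) (hz : ¬ IsIsolatedInvolution z) : PRankLE 2 2 G := fun E ab e2 => by
  obtain ⟨T, a, b, m, L, -⟩ := h.lc' IsPGroup.of_bot bot_le
  obtain ⟨g, -, le⟩ := L.top.exists_conj_le (Q := E) (fun x => ⟨1, Subtype.ext (e2 x x.2)⟩) le_top
  replace ab := le_cent_iff.1 (abelian_cent ((abelian_conj g).2 ab))
  replace e2 : ∀ x ∈ g ⋆ E, x * x = 1 := by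
    rintro _ ⟨x, hx, rfl⟩
    exact cj2 g ((sq x).symm.trans (e2 x hx))
  rw [← Transfer.card_conj g]
  generalize g ⋆ E = E at *
  by_contra! lt
  have cz : Nat.card (zpowers z) = 2 := by rw [Nat.card_zpowers, ord_two_iff.2 ⟨h.z1, h.z2⟩]
  have ex : ∀ s ∈ E, s ∉ zpowers z → ∃ t ∈ E, t ∉ zpowers z ⊔ zpowers s := fun s hs n => SetLike.not_le_iff_exists.1 fun l => by
    have := card_le_of_le l
    rw [PGroup.card_sup_zpowers (p := 2) (cent_le_norm _ ((cent_zpowers z).ge (L.syl.le (le hs)))) n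
      (by rw [sq, e2 s hs]; exact one_mem _), cz] at this
    omega
  obtain ⟨s, hs, n, hD⟩ : ∃ s ∈ E, s ∉ zpowers z ∧ s ∈ A ⊔ 𝐂(A) := by
    obtain ⟨s, hs, n⟩ := SetLike.not_le_iff_exists.1 fun l : E ≤ zpowers z => by have := card_le_of_le l; omega
    obtain ⟨t, ht, n'⟩ := ex s hs n
    rcases L.three (le hs) (le ht) (e2 s hs) (e2 t ht) (e2 _ (mul_mem hs ht)) with f | f | f
    exacts [⟨s, hs, n, f⟩, ⟨t, ht, fun l => n' (mem_sup_left l), f⟩, ⟨_, mul_mem hs ht, fun l =>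
      n' ((mul_mem_cancel_left (mem_sup_right (mem_zpowers s))).1 (mem_sup_left l)), f⟩]
  have s1 : s ≠ 1 := fun e => n (e ▸ one_mem _)
  have sz : s ≠ z := fun e => n (e ▸ mem_zpowers _)
  by_cases H2 : ∀ g, g * z * g⁻¹ ∈ A ⊔ 𝐂(A) → g * z * g⁻¹ = z
  · obtain ⟨x, c, ne⟩ : ∃ x, Commute z (x * z * x⁻¹) ∧ x * z * x⁻¹ ≠ z := by
      by_contra! f
      exact hz ⟨ord_two_iff.2 ⟨h.z1, h.z2⟩, f⟩
    obtain ⟨y, hy, l⟩ := L.syl.exists_conj_le (pg_inv (cj2 x h.z2)) (zpowers_le.2 (mem_cent1.2 c.symm))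
    obtain ⟨-, -, r, hr, -, -, r2⟩ := L.dec2 (le hs) hD (e2 s hs) s1 sz
    exact L.no_root H2 (l (Transfer.conj_mem_conj.2 (mem_zpowers _))) (g := (y * x)⁻¹) (by group) (fun e => ne (by
      rw [← mul_inv_eq_iff_eq_mul.2 (mem_cent1.1 hy), mul_left_inj, mul_right_inj] at e
      rwa [mul_inv_eq_iff_eq_mul.2 (mem_cent1.1 hy)] at e)) hG hr r2
  push Not at H2
  obtain ⟨x, mx, ne⟩ := H2
  obtain ⟨t, ht, n'⟩ := ex s hs n
  refine h.fano (fun y y2 y1 => ?_) hD (L.cz (le ht)) (e2 s hs) (e2 t ht) (ab s hs t ht) s1 sz n'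
  obtain ⟨k, mk⟩ := L.intoD hG L.top y2
  by_cases e : k * y * k⁻¹ = z
  · exact ⟨k, e⟩
  obtain ⟨l, f⟩ := h.cjD mk mx (cj2 k y2) (cj2 x h.z2) (conj_eq_one_iff.not.2 y1) e (conj_eq_one_iff.not.2 h.z1) ne
  exact ⟨x⁻¹ * l * k, by rw [show z = x⁻¹ * (x * z * x⁻¹) * x by group, ← f]; group⟩

end Cfsg.Lib.QC
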